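import Cfsg.Agent.G23Mult.Code

set_option autoImplicit false
set_option maxRecDepth 100000

/-!
Kernel evaluations of the checks on the Sylow subgroup and its extension.
-/

namespace CfsgLib.G23Mult

theorem wf_ok : okWf = true := by decide +kernel
theorem left_ok : okLeft = true := by decide +kernel
theorem comm_ok : okComm = true := by decide +kernel
theorem top_ok : okTop = true := by decide +kernel
theorem nine_ok : okNine = true := by decide +kernel
theorem word_ok : okWord = true := by decide +kernel

end CfsgLib.G23Mult
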