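import Cfsg.Agent.G23Mult.Data
import Cfsg.Agent.G23Mult.Bound
import Cfsg.Agent.G23Mult.Group

set_option autoImplicit false
set_option maxRecDepth 100000

/-!
Stem kernels of three-power and of two-power order over `G₂(3)`.
-/

namespace CfsgLib.G23Mult

open Cfsg CfsgLib.G2Three
open CfsgLib.M23Coh (wordE)

universe v

/-- The code of a lettered element. -/
def lC (ws : List (List ℕ)) (i : ℕ) : ℕ := rootWord (ws.getD i [])

/-- The code of a word in the lettered elements. -/
def wC (ws : List (List ℕ)) (w : List ℕ) : ℕ := w.foldr (fun i c => mulC (lC ws i) c) oneC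

theorem gel_exists : ∃ f : List (List ℕ) → ℕ → G3, ∀ ws i, f ws i = elc (lC ws i) :=
  ⟨fun ws i => elc (lC ws i), fun _ _ => rfl⟩

/-- The lettered elements, with their definition hidden. -/
noncomputable def gel : List (List ℕ) → ℕ → G3 := gel_exists.choose

theorem gel_def (ws : List (List ℕ)) (i : ℕ) : gel ws i = elc (lC ws i) := gel_exists.choose_spec ws i

theorem wordE_hom {H : Type*} [Group H] (f : ℕ → H) (e : ℕ → H) (P : ℕ → Prop) (m : ℕ → ℕ → ℕ)
    (c : List ℕ → ℕ) (l : ℕ → ℕ) (h0 : e (c []) = 1) (hc : ∀ i r, c (i :: r) = m (l i) (c r))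
    (hl : ∀ i, P (l i)) (hP : ∀ r, P (c r)) (hf : ∀ i, f i = e (l i))
    (hm : ∀ a b, P a → P b → e a * e b = e (m a b)) : ∀ w, wordE f w = e (c w)
  | [] => h0.symm
  | i :: r => by
    have ih := wordE_hom f e P m c l h0 hc hl hP hf hm r
    rw [show wordE f (i :: r) = f i * wordE f r from rfl, ih, hf, hm _ _ (hl i) (hP r), hc]

theorem elk_exists : ∃ f : ℕ → G3, ∀ n, f n = elc n := ⟨elc, fun _ => rfl⟩

/-- The element of a code, with its definition hidden. -/
noncomputable def elk : ℕ → G3 := elk_exists.choose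

theorem elk_eq (n : ℕ) : elk n = elc n := elk_exists.choose_spec n

theorem elk_mul {a b : ℕ} (ha : Good a) (hb : Good b) : elk a * elk b = elk (mulC a b) := by
  rw [elk_eq, elk_eq, elk_eq, elc_mulC ha hb]

theorem elk_one : elk oneC = 1 := by rw [elk_eq, elc_one]

/-- The root codes of the letters are in range. -/
def wsOk (ws : List (List ℕ)) : Bool := ws.all fun w => w.all fun e => Nat.blt e 24

theorem wsOk3 : wsOk words3 = true := by decide +kernel

theorem wsOk2 : wsOk words2 = true := by decide +kernel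

theorem good_lC {ws : List (List ℕ)} (h : wsOk ws = true) (i : ℕ) : Good (lC ws i) := by
  rw [lC]
  refine good_rootWord _ fun e he => ?_
  simp only [wsOk, List.all_eq_true, Nat.blt_eq] at h
  rcases Nat.lt_or_ge i ws.length with hi | hi
  · rw [List.getD_eq_getElem _ _ hi] at he
    exact h _ (List.getElem_mem hi) e he
  · rw [List.getD_eq_default _ _ hi] at he
    cases he

theorem wC_nil (ws : List (List ℕ)) : wC ws [] = oneC := by rw [wC, List.foldr_nil]

theorem wC_cons (ws : List (List ℕ)) (i : ℕ) (r : List ℕ) : wC ws (i :: r) = mulC (lC ws i) (wC ws r) := by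
  rw [wC, wC, List.foldr_cons]

theorem good_wC_good {ws : List (List ℕ)} (h : wsOk ws = true) : ∀ w : List ℕ, Good (wC ws w) := by
  intro w
  induction w with
  | nil => rw [wC_nil]; exact good_one
  | cons i r ih => rw [wC_cons]; exact good_mul (good_lC h i) ih

theorem wordE_gel {ws : List (List ℕ)} (h : wsOk ws = true) (w : List ℕ) :
    wordE (gel ws) w = elc (wC ws w) := by
  rw [← elk_eq]
  exact wordE_hom (gel ws) elk Good mulC (wC ws) (lC ws) (by rw [wC_nil, elk_one]) (wC_cons ws)
    (good_lC h) (good_wC_good h) (fun i => by rw [gel_def, elk_eq])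
    (fun _ _ ha hb => elk_mul ha hb) w

theorem good_wC {ws : List (List ℕ)} (h : wsOk ws = true) (w : List ℕ) :
    Good (wC ws w) ∧ wordE (gel ws) w = elc (wC ws w) :=
  ⟨good_wC_good h w, wordE_gel h w⟩

/-- The relations hold between the codes. -/
def relsOk (c : SchurCert.GCert) (ws : List (List ℕ)) : Bool :=
  c.rels.all fun r => Nat.beq (wC ws r.1) (wC ws r.2)

theorem rels_of {c : SchurCert.GCert} {ws : List (List ℕ)} (hw : wsOk ws = true) (h : relsOk c ws = true) :
    ∀ r ∈ c.rels, wordE (gel ws) r.1 = wordE (gel ws) r.2 := fun r hr => by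
  simp only [relsOk, List.all_eq_true, Nat.beq_eq] at h
  rw [(good_wC hw r.1).2, (good_wC hw r.2).2, h r hr]

theorem rels_ok3 : relsOk cert3 words3 = true := by decide +kernel

theorem rels_ok2 : relsOk cert2 words2 = true := by decide +kernel

theorem gel3_eq {i : ℕ} (hi : i < 6) : gel words3 i = elc (elC (3 ^ i)) := by
  have h := gens_ok3.1
  simp only [gensOk3, List.all_eq_true, List.mem_range, Bool.and_eq_true, Nat.beq_eq] at h
  rw [gel_def, lC, (h i hi).2]

/-- Distinct members bound the order of a subgroup below. -/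
theorem card_le_of_inj {H : Type*} [Group H] [Finite H] (S : Subgroup H) (f : ℕ → H) (n : ℕ)
    (hf : ∀ a < n, f a ∈ S) (hinj : ∀ a < n, ∀ b < n, f a = f b → a = b) : n ≤ Nat.card S := by
  have h := Nat.card_le_card_of_injective (fun a : Fin n => (⟨f a, hf a a.2⟩ : S))
    fun a b e => Fin.ext (hinj a a.2 b b.2 (congrArg Subtype.val e))
  rwa [Nat.card_fin] at h

theorem core3 : cert3.Core (gel words3) := by
  refine ⟨Nat.prime_three, rels_of wsOk3 rels_ok3, by decide +kernel, by decide +kernel, by decide +kernel,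
    ?_, ?_⟩
  · rw [show cert3.p ^ cert3.n = 729 from rfl, show cert3.n = 6 from rfl]
    set S := Subgroup.closure (gel words3 '' {s | s < 6})
    have hmem : ∀ w : List ℕ, (∀ i ∈ w, i < 6) → elc (elC (actW w (0, 0)).1) ∈ S := by
      intro w
      induction w with
      | nil =>
        intro _
        rw [actW, List.foldr_nil, el_zero]
        exact one_mem _
      | cons i r ih =>
        intro h
        have hr : ∀ x ∈ r, x < 6 := fun x hx => h x (List.mem_cons_of_mem _ hx)
        obtain ⟨h1, -⟩ := actW_lt r hr (0, 0) (by norm_num) (by norm_num)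
        have hi : i < 6 := h i List.mem_cons_self
        have e : (actW (i :: r) (0, 0)).1 = ltA i (actW r (0, 0)).1 := by
          simp only [actW, List.foldr_cons, actL]
        rw [e, el_mul_left hi h1]
        exact mul_mem (Subgroup.subset_closure ⟨i, hi, gel3_eq hi⟩) (ih hr)
    haveI := finite_G3
    exact card_le_of_inj S (fun a => elc (elC a)) 729
      (fun a ha => by have h := hmem _ (word_spec ha).1; rwa [(word_spec ha).2] at h)
      (fun a ha b hb e => el_inj ha hb e)
  · rw [card_G3]; decide +kernel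

theorem nine_ok' : checkNine cert3 nine = true := by decide +kernel

theorem three_part {Γ : Type v} [Group Γ] [Finite Γ] {σ : Γ →* G3} (hσ : Cfsg.IsStemExtension σ)
    (h : ∀ q, q.Prime → q ∣ Nat.card σ.ker → q = 3) : Nat.card σ.ker ∣ 3 :=
  haveI := finite_G3
  card_ker_dvd_three core3 rfl nine_ok' hσ h

theorem nf_ok2 : (cert2.nf.map (wC words2)).Nodup := by decide +kernel

theorem ok2 : cert2.Ok (gel words2) := by
  refine ⟨Nat.prime_two, rels_of wsOk2 rels_ok2, by decide +kernel, by decide +kernel, by decide +kernel,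
    by decide +kernel, ?_, ?_⟩
  · refine (List.nodup_map_iff_inj_on (List.Nodup.of_map _ nf_ok2)).2 fun u hu v hv e => ?_
    refine List.inj_on_of_nodup_map nf_ok2 hu hv (elc_inj (good_wC wsOk2 u).1 (good_wC wsOk2 v).1 ?_)
    rw [← (good_wC wsOk2 u).2, ← (good_wC wsOk2 v).2, e]
  · rw [card_G3]; decide +kernel

theorem phi_zero2 : cert2.phiZero = true := by decide +kernel

theorem two_part {Γ : Type v} [Group Γ] [Finite Γ] {σ : Γ →* G3} (hσ : Cfsg.IsStemExtension σ)
    (h : ∀ q, q.Prime → q ∣ Nat.card σ.ker → q = 2) : σ.ker = ⊥ :=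
  haveI := finite_G3
  ker_eq_bot_of_phiZero ok2.toCore phi_zero2 hσ h

end CfsgLib.G23Mult
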