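import Cfsg.Agent.G23Mult.Code

set_option autoImplicit false
set_option maxRecDepth 100000

/-!
Kernel evaluation of the next two coset tables.
-/

namespace CfsgLib.G23Mult

theorem tableC_ok : okTable (rootC (simp.getD 2 0)) tblC = true := by decide +kernel

theorem tableD_ok : okTable (rootC (simp.getD 3 0)) tblD = true := by decide +kernel

end CfsgLib.G23Mult
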