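import Cfsg.Agent.G23Mult.Code

set_option autoImplicit false
set_option maxRecDepth 100000

/-!
Kernel evaluation of the representatives, the simple words and the pair.
-/

namespace CfsgLib.G23Mult

theorem parents_ok : okParents = true := by decide +kernel

/-- Each root element is a product of simple ones. -/
def okRootWords : Bool := (List.range 12).all fun r =>
  (rootWords.getD r []).all (fun i => Nat.blt i 4) &&
    Nat.beq (((rootWords.getD r []).map fun i => simp.getD i 0).foldr (fun e c => mulC (rootC e) c) oneC)
      (rootC (2 * r))

theorem rootWords_ok : okRootWords = true := by decide +kernel

theorem pair_ok : okPair tblU tblV = true := by decide +kernel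

end CfsgLib.G23Mult
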