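import Cfsg.Agent.G23Mult.Code

set_option autoImplicit false
set_option maxRecDepth 100000

/-!
Kernel evaluation of the tables of the commuting pair.
-/

namespace CfsgLib.G23Mult

theorem tableU_ok : okTable (elC pairU) tblU = true := by decide +kernel

theorem tableV_ok : okTable (elC pairV) tblV = true := by decide +kernel

theorem pair_commute : mulC (elC pairU) (elC pairV) = mulC (elC pairV) (elC pairU) := by decide +kernel

end CfsgLib.G23Mult
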