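import Cfsg.Agent.G23Mult.Ext
import Cfsg.Agent.G23Mult.Parts
import Cfsg.Agent.G23Mult.TablesOkA
import Cfsg.Agent.G23Mult.TablesOkC
import Cfsg.Agent.G23Mult.TablesOkU
import Cfsg.Agent.G23Mult.TablesOkP
import Cfsg.Agent.Schur.Stemify
import Cfsg.Agent.SchurSylow.Monomial

set_option autoImplicit false
set_option maxRecDepth 100000

/-!
A cover of `G₂(3)` whose kernel has order divisible by three.
-/

namespace CfsgLib.G23Mult

open Cfsg Cfsg.Lie Matrix CfsgLib.G2Three CfsgLib.Schur CfsgLib.SchurSylow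

theorem simp_lt (k : ℕ) (hk : k < 4) : simp.getD k 0 < 24 := by
  have h : ((List.range 4).all fun k => Nat.blt (simp.getD k 0) 24) = true := by decide +kernel
  simp only [List.all_eq_true, List.mem_range, Nat.blt_eq] at h
  exact h k hk

theorem good_rep : ∀ i, i < 5824 → Good (rep i) := by
  have h := parents_ok
  simp only [okParents, Bool.and_eq_true, List.all_eq_true, List.mem_range, Nat.beq_eq, Nat.blt_eq] at h
  obtain ⟨h0, h1⟩ := h
  intro i
  induction i using Nat.strong_induction_on with
  | _ i ih =>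
    intro hi
    rcases Nat.eq_zero_or_pos i with h2 | h2
    · rw [h2, h0]; exact good_one
    · obtain ⟨k, rfl⟩ : ∃ k, i = k + 1 := ⟨i - 1, by omega⟩
      obtain ⟨h3, h4⟩ := h1 k (by omega)
      rw [← h4]
      exact good_mul (good_root (simp_lt _ (Nat.mod_lt _ (by norm_num)))) (ih _ h3 (by omega))

theorem rP_exists : ∃ f : Fin 5824 → G3, ∀ i, f i = elk (rep i.val) := ⟨fun i => elk (rep i.val), fun _ => rfl⟩

/-- The representatives, with their definition hidden. -/
noncomputable def rP : Fin 5824 → G3 := rP_exists.choose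

theorem rP_eq (i : Fin 5824) : rP i = elk (rep i.val) := rP_exists.choose_spec i

theorem table_lt {g : ℕ} {tbl : List ℕ} (ok : okTable g tbl = true) (i : Fin 5824) :
    eJ (entry tbl i) < 5824 := by
  simp only [okTable, okEntry, List.all_eq_true, List.mem_range, Bool.and_eq_true, Nat.blt_eq] at ok
  exact (ok i i.2).1.1

theorem eP_entry_lt {g : ℕ} {tbl : List ℕ} (ok : okTable g tbl = true) (i : Fin 5824) :
    eP (entry tbl i) < 729 := by
  simp only [okTable, okEntry, List.all_eq_true, List.mem_range, Bool.and_eq_true, Nat.blt_eq] at ok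
  exact (ok i i.2).1.2

/-- The permutation of a table. -/
def piT (tbl : List ℕ) (h : ∀ i : Fin 5824, eJ (entry tbl i) < 5824) (i : Fin 5824) : Fin 5824 :=
  ⟨eJ (entry tbl i), h i⟩

/-- The Sylow part of a table. -/
noncomputable def uT (tbl : List ℕ) (i : Fin 5824) : P3s := pEl (eP (entry tbl i))

theorem piT_val (tbl : List ℕ) (h : ∀ i : Fin 5824, eJ (entry tbl i) < 5824) (i : Fin 5824) :
    (piT tbl h i).val = eJ (entry tbl i) := by rw [piT]

theorem table_spec {g : ℕ} {tbl : List ℕ} (hg : Good g) (ok : okTable g tbl = true) (i : Fin 5824) :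
    elk g * rP i = rP (piT tbl (table_lt ok) i) * (uT tbl i : G3) := by
  have hok := ok
  simp only [okTable, okEntry, List.all_eq_true, List.mem_range, Bool.and_eq_true, Nat.beq_eq] at hok
  have h := (hok i i.2).2
  rw [uT, pEl_val (eP_entry_lt ok i), elG_eq, ← elk_eq, rP_eq, rP_eq, piT_val,
    elk_mul hg (good_rep i i.2), elk_mul (good_rep _ (table_lt ok i)) (good_el (eP_entry_lt ok i)), h]

theorem index_P3s : P3s.index = 5824 := by
  have h := Subgroup.card_mul_index P3s
  rw [card_P3s, card_G3] at h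
  omega

theorem xMat_zero : ∀ r : Fin chevG2.nroots, r7 (chevG2.xMat (ZMod 3) r 0) = toM oneC := by decide +kernel

/-- The odd root codes are squares of the even ones. -/
def okSquares : Bool := (List.range 12).all fun r =>
  Nat.beq (mulC (rootC (2 * r)) (rootC (2 * r))) (rootC (2 * r + 1))

theorem squares_ok : okSquares = true := by decide +kernel

theorem three_cases : ∀ t : ZMod 3, t = 0 ∨ t = 1 ∨ t = 2 := by decide

theorem elk_rho {n : ℕ} (hn : Good n) {x : G3} (hx : rho x = toM n) : elk n = x := by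
  rw [elk_eq]; exact elc_eq hn hx

/-- A subgroup holding the four simple root elements is everything. -/
theorem eq_top_of_simple (N : Subgroup G3) (hN : ∀ k < 4, elk (rootC (simp.getD k 0)) ∈ N) : N = ⊤ := by
  have hword : ∀ l : List ℕ, (∀ k ∈ l, k < 4) →
      Good ((l.map fun i => simp.getD i 0).foldr (fun e c => mulC (rootC e) c) oneC) ∧
        elk ((l.map fun i => simp.getD i 0).foldr (fun e c => mulC (rootC e) c) oneC) ∈ N := by
    intro l
    induction l with
    | nil =>
      intro _
      rw [List.map_nil, List.foldr_nil, elk_one]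
      exact ⟨good_one, one_mem N⟩
    | cons k r ih =>
      intro h
      obtain ⟨h1, h2⟩ := ih fun x hx => h x (List.mem_cons_of_mem _ hx)
      have hk : k < 4 := h k List.mem_cons_self
      rw [List.map_cons, List.foldr_cons, ← elk_mul (good_root (simp_lt k hk)) h1]
      exact ⟨good_mul (good_root (simp_lt k hk)) h1, mul_mem (hN k hk) h2⟩
  have heven : ∀ r < 12, elk (rootC (2 * r)) ∈ N := fun r hr => by
    have h := rootWords_ok
    simp only [okRootWords, List.all_eq_true, List.mem_range, Bool.and_eq_true, Nat.blt_eq, Nat.beq_eq] at h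
    obtain ⟨h1, h2⟩ := h r hr
    exact h2 ▸ (hword _ h1).2
  have hgen : ∀ (x : G3) (r : Fin chevG2.nroots) (t : ZMod 3),
      ((x : GL chevG2.Idx (ZMod 3)) : Matrix chevG2.Idx chevG2.Idx (ZMod 3)) = chevG2.xMat (ZMod 3) r t →
        x ∈ N := by
    intro x r t hx
    have e : rho x = r7 (chevG2.xMat (ZMod 3) r t) := (rho_apply x).trans (congrArg r7 hx)
    have hr : r.val < 12 := r.2
    have ht := three_cases t
    rcases ht with rfl | rfl | rfl
    · rw [← elk_rho good_one (e.trans (xMat_zero r)), elk_one]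
      exact one_mem N
    · have h1 := roots_eq r ⟨0, by norm_num⟩
      rw [← elk_rho (good_root (show 2 * r.val < 24 by omega)) (e.trans h1)]
      exact heven _ hr
    · have h1 := roots_eq r ⟨1, by norm_num⟩
      rw [← elk_rho (good_root (show 2 * r.val + 1 < 24 by omega)) (e.trans h1)]
      have h2 := squares_ok
      simp only [okSquares, List.all_eq_true, List.mem_range, Nat.beq_eq] at h2
      rw [← h2 r.val hr, ← elk_mul (good_root (show 2 * r.val < 24 by omega)) (good_root (by omega))]
      exact mul_mem (heven _ hr) (heven _ hr)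
  haveI := finite_G3
  have htop : Subgroup.closure ((Subtype.val : G3 → GL chevG2.Idx (ZMod 3)) ⁻¹'
      {g | ∃ (r : Fin chevG2.nroots) (t : ZMod 3),
        (g : Matrix _ _ (ZMod 3)) = chevG2.xMat (ZMod 3) r t}) = ⊤ := Subgroup.closure_closure_coe_preimage
  rw [eq_top_iff, ← htop, Subgroup.closure_le]
  rintro x ⟨r, t, hrt⟩
  exact hgen x r t hrt

section orbit

variable {H : Type*} [Group H] [Finite H] {ι : Type*} [Fintype ι]

/-- The elements that map the listed cosets into themselves. -/
def stableSub (P : Subgroup H) (r : ι → H) : Subgroup H :=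
  let N : Submonoid H :=
    { carrier := {g | ∀ i, ∃ j, g • ((r i : H) : H ⧸ P) = ((r j : H) : H ⧸ P)}
      one_mem' := fun i => ⟨i, one_smul _ _⟩
      mul_mem' := by
        intro g g' hg hg' i
        obtain ⟨j, hj⟩ := hg' i
        obtain ⟨k, hk⟩ := hg j
        exact ⟨k, by rw [mul_smul, hj, hk]⟩ }
  { N with
    inv_mem' := fun {g} hg => by
      have h1 : g ^ (orderOf g - 1) = g⁻¹ := by
        refine eq_inv_of_mul_eq_one_left ?_
        rw [← pow_succ, Nat.sub_add_cancel (orderOf_pos g), pow_orderOf_eq_one]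
      exact h1 ▸ (Submonoid.pow_mem N hg _ : g ^ (orderOf g - 1) ∈ N) }

theorem mem_stableSub {P : Subgroup H} {r : ι → H} {g : H} (π : ι → ι) (u : ι → P)
    (h : ∀ i, g * r i = r (π i) * u i) : g ∈ stableSub P r := fun i => ⟨π i, by
  rw [MulAction.Quotient.smul_coe, smul_eq_mul, h]
  exact QuotientGroup.mk_mul_of_mem _ (u i).2⟩

theorem bijective_of_stable {P : Subgroup H} {r : ι → H} (htop : stableSub P r = ⊤) (i0 : ι)
    (hidx : P.index = Fintype.card ι) : Function.Bijective fun i => ((r i : H) : H ⧸ P) := by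
  classical
  haveI := Fintype.ofFinite (H ⧸ P)
  refine (Fintype.bijective_iff_surjective_and_card _).2 ⟨fun q => ?_, ?_⟩
  · obtain ⟨g, rfl⟩ := QuotientGroup.mk_surjective q
    have hg : g * (r i0)⁻¹ ∈ stableSub P r := htop ▸ Subgroup.mem_top _
    obtain ⟨j, hj⟩ := hg i0
    refine ⟨j, hj.symm.trans ?_⟩
    simp only [MulAction.Quotient.smul_coe, smul_eq_mul, inv_mul_cancel_right]
  · rw [← hidx, Subgroup.index_eq_card, Nat.card_eq_fintype_card]

end orbit

theorem reps_bijective : Function.Bijective fun i : Fin 5824 => ((rP i : G3) : G3 ⧸ P3s) := by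
  haveI := finite_G3
  refine bijective_of_stable (eq_top_of_simple _ fun k hk => ?_) 0 (by rw [index_P3s, Fintype.card_fin])
  interval_cases k
  · exact mem_stableSub _ _ (table_spec (good_root (simp_lt 0 (by norm_num))) tableA_ok)
  · exact mem_stableSub _ _ (table_spec (good_root (simp_lt 1 (by norm_num))) tableB_ok)
  · exact mem_stableSub _ _ (table_spec (good_root (simp_lt 2 (by norm_num))) tableC_ok)
  · exact mem_stableSub _ _ (table_spec (good_root (simp_lt 3 (by norm_num))) tableD_ok)

theorem sum_cast (f : ℕ → ℕ) (n : ℕ) :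
    ∑ i : Fin n, ((f i.val : ℕ) : ZMod 3) = ((((List.range n).map f).sum : ℕ) : ZMod 3) := by
  induction n with
  | zero => simp
  | succ n ih =>
    rw [Fin.sum_univ_castSucc, List.range_succ, List.map_append, List.sum_append, Nat.cast_add]
    simp only [Fin.val_castSucc, Fin.val_last]
    rw [ih]
    simp

theorem point_prod {a b : ℕ} (ha : a < 729) (hb : b < 729) :
    nat2 ((sec3 (pEl a) * sec3 (pEl b)).1 base) = actW (word a) (b, 0) := by
  rw [sec3_pEl ha, sec3_pEl hb, Subgroup.coe_mul, Equiv.Perm.mul_apply, wEl_apply _ (word_spec ha).1,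
    wEl_word hb]
  rfl

theorem pair_eq {a b c d t : ℕ} (ha : a < 729) (hb : b < 729) (hc : c < 729) (hd : d < 729)
    (h1 : (actW (word a) (b, 0)).1 = (actW (word c) (d, 0)).1)
    (h2 : (actW (word a) (b, 0)).2 = ((actW (word c) (d, 0)).2 + t) % 3) :
    sec3 (pEl a) * sec3 (pEl b) =
      sec3 (pEl c) * sec3 (pEl d) * incl3 (Multiplicative.ofAdd (t : ZMod 3)) := by
  rw [incl3_central]
  refine ext_base (nat2_inj ?_)
  rw [point_prod ha hb, Subgroup.coe_mul (G := Equiv.Perm Pt) E3, Equiv.Perm.mul_apply, nat2_incl3,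
    toAdd_ofAdd, ZMod.val_natCast, Nat.add_mod_mod]
  have e := point_prod hc hd
  refine Prod.ext (h1.trans (congrArg Prod.fst e).symm) ?_
  refine h2.trans ?_
  rw [← congrArg Prod.snd e]
  rfl

/-- The value at a point as an element of the fibre. -/
noncomputable def fibT (i : Fin 5824) : Multiplicative (ZMod 3) :=
  Multiplicative.ofAdd ((pairVal tblU tblV i.val : ℕ) : ZMod 3)

theorem good_pair : Good (elC pairU) ∧ Good (elC pairV) :=
  ⟨good_el (by decide), good_el (by decide)⟩

theorem exists_cover : ∃ (Γ : Type) (_ : Group Γ) (_ : Finite Γ) (σ : Γ →* G3),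
    Cfsg.IsStemExtension σ ∧ 3 ∣ Nat.card σ.ker := by
  classical
  haveI := finite_G3
  haveI := Fintype.ofFinite (G3 ⧸ P3s)
  obtain ⟨Γ₀, _, _, φ, inc, hφs, hφc, hinj, hcom⟩ := exists_induced zeta
    (fun x => ⟨_, zeta_sec3 x⟩) incl3 zeta_incl3 incl3_central incl3_injective exists_incl3
  have hcomm : elk (elC pairU) * elk (elC pairV) = elk (elC pairV) * elk (elC pairU) := by
    rw [elk_mul good_pair.1 good_pair.2, elk_mul good_pair.2 good_pair.1, pair_commute]
  have okp := pair_ok
  simp only [okPair, Bool.and_eq_true, List.all_eq_true, List.mem_range, Nat.beq_eq, Nat.ble_eq] at okp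
  obtain ⟨hbase, hsum⟩ := okp
  obtain ⟨A, B, T, hAB, hprod⟩ := exists_pair_reps zeta sec3 zeta_sec3 incl3 zeta_incl3 incl3_injective
    incl3_central exists_incl3 rP reps_bijective _ _ hcomm
    (piT tblU (table_lt tableU_ok)) (piT tblV (table_lt tableV_ok)) (uT tblU) (uT tblV)
    (table_spec good_pair.1 tableU_ok) (table_spec good_pair.2 tableV_ok)
    fibT (fun i => by
      obtain ⟨hb1, hb2⟩ := hbase i i.2
      simp only [pairPts] at hb1 hb2
      rw [uT, uT, uT, uT, fibT, piT_val, piT_val]
      have h1 := eP_entry_lt tableU_ok ⟨_, table_lt tableV_ok i⟩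
      have h2 := eP_entry_lt tableV_ok i
      have h3 := eP_entry_lt tableV_ok ⟨_, table_lt tableU_ok i⟩
      have h4 := eP_entry_lt tableU_ok i
      refine pair_eq h1 h2 h3 h4 hb1 ?_
      have hlt := (actW_lt (word (eP (entry tblU (eJ (entry tblV i.val))))) (word_spec h1).1
        (eP (entry tblV i.val), 0) h2 (by norm_num)).2
      simp only [pairVal, pairPts]
      omega)
  have h1 := hcom A B T hAB
  rw [hprod] at h1
  have hs : ∏ i, fibT i = Multiplicative.ofAdd (1 : ZMod 3) := by
    simp only [fibT]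
    rw [← ofAdd_sum, sum_cast (pairVal tblU tblV), ← ZMod.natCast_mod, hsum, Nat.cast_one]
  rw [hs] at h1
  have hrange : inc.range ≤ φ.ker ⊓ commutator Γ₀ := by
    rintro _ ⟨x, rfl⟩
    rw [show x = Multiplicative.ofAdd (1 : ZMod 3) ^ x.toAdd.val from
      Multiplicative.toAdd.injective (by simp), map_pow]
    exact pow_mem h1 _
  obtain ⟨Γ, iG, iF, σ, hσ, ⟨e⟩⟩ := exists_stem φ hφs hφc
  refine ⟨Γ, iG, iF, σ, hσ, ?_⟩
  rw [Nat.card_congr e.toEquiv]
  have hd := Subgroup.card_dvd_of_le hrange
  rw [Nat.card_congr (MonoidHom.ofInjective hinj).toEquiv.symm, Nat.card_congr Multiplicative.toAdd,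
    Nat.card_zmod] at hd
  exact hd

end CfsgLib.G23Mult
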