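import Cfsg.Agent.G23Mult.Group

set_option autoImplicit false
set_option maxRecDepth 100000

/-!
An extension of the Sylow 3-subgroup by a group of order three, as a regular group of permutations.
-/

namespace CfsgLib.G23Mult

open CfsgLib.G2Three

theorem elG_exists : ∃ f : ℕ → G3, ∀ a, f a = elc (elC a) := ⟨fun a => elc (elC a), fun _ => rfl⟩

/-- The element of an index, with its definition hidden. -/
noncomputable def elG : ℕ → G3 := elG_exists.choose

theorem elG_eq (a : ℕ) : elG a = elc (elC a) := elG_exists.choose_spec a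

theorem elG_zero : elG 0 = 1 := by rw [elG_eq, el_zero]

theorem elG_left {i a : ℕ} (hi : i < 6) (ha : a < 729) : elG (ltA i a) = elG (3 ^ i) * elG a := by
  rw [elG_eq, elG_eq, elG_eq, el_mul_left hi ha]

theorem elG_inj {a b : ℕ} (ha : a < 729) (hb : b < 729) (e : elG a = elG b) : a = b :=
  el_inj ha hb (by rw [← elG_eq, ← elG_eq, e])

/-- The points. -/
abbrev Pt : Type := Fin 729 × Fin 3

/-- A point as a pair of numbers. -/
def nat2 (p : Pt) : ℕ × ℕ := (p.1.val, p.2.val)

theorem nat2_inj {p q : Pt} (h : nat2 p = nat2 q) : p = q :=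
  Prod.ext (Fin.ext (congrArg Prod.fst h)) (Fin.ext (congrArg Prod.snd h))

theorem actW_add : ∀ (w : List ℕ) (a r : ℕ), r < 3 →
    actW w (a, r) = ((actW w (a, 0)).1, (r + (actW w (a, 0)).2) % 3)
  | [], a, r, hr => by
    change (a, r) = (a, (r + 0) % 3)
    rw [add_zero, Nat.mod_eq_of_lt hr]
  | i :: w, a, r, hr => by
    change actL i (actW w (a, r)) = ((actL i (actW w (a, 0))).1, (r + (actL i (actW w (a, 0))).2) % 3)
    rw [actW_add w a r hr]
    simp only [actL, Nat.mod_add_mod, Nat.add_mod_mod, add_assoc]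

theorem actW_append : ∀ (u v : List ℕ) (p : ℕ × ℕ), actW (u ++ v) p = actW u (actW v p) := fun u v p => by
  simp only [actW, List.foldr_append]

theorem actW_singleton (i : ℕ) (p : ℕ × ℕ) : actW [i] p = actL i p := by
  simp only [actW, List.foldr_cons, List.foldr_nil]

theorem nine_spec {i a r : ℕ} (hi : i < 6) (ha : a < 729) (hr : r < 3) :
    actW (List.replicate 9 i) (a, r) = (a, r) := by
  have h := nine_ok
  simp only [okNine, Bool.and_eq_true, List.all_eq_true, List.mem_range, Nat.beq_eq] at h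
  rw [actW_add _ _ _ hr, (h i hi a ha).1, (h i hi a ha).2, add_zero, Nat.mod_eq_of_lt hr]

theorem replicate_lt {n : ℕ} (i : Fin 6) : ∀ x ∈ List.replicate n i.val, x < 6 := fun x hx => by
  rw [List.eq_of_mem_replicate hx]; exact i.isLt

/-- A point from a word applied to a point. -/
def stepW (w : List ℕ) (h : ∀ i ∈ w, i < 6) (p : Pt) : Pt :=
  (⟨(actW w (nat2 p)).1, (actW_lt w h (nat2 p) p.1.2 p.2.2).1⟩,
    ⟨(actW w (nat2 p)).2, (actW_lt w h (nat2 p) p.1.2 p.2.2).2⟩)

theorem nat2_stepW (w : List ℕ) (h : ∀ i ∈ w, i < 6) (p : Pt) : nat2 (stepW w h p) = actW w (nat2 p) := rfl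

theorem single_lt (i : Fin 6) : ∀ x ∈ [i.val], x < 6 := by simp

/-- A left multiplication. -/
def Lp (i : Fin 6) : Equiv.Perm Pt where
  toFun := stepW [i.val] (single_lt i)
  invFun := stepW (List.replicate 8 i.val) (replicate_lt i)
  left_inv p := nat2_inj (by
    rw [nat2_stepW, nat2_stepW, ← actW_append, ← List.replicate_succ' (n := 8)]
    exact nine_spec i.2 p.1.2 p.2.2)
  right_inv p := nat2_inj (by
    rw [nat2_stepW, nat2_stepW, ← actW_append, List.singleton_append, ← List.replicate_succ (n := 8)]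
    exact nine_spec i.2 p.1.2 p.2.2)

theorem nat2_Lp (i : Fin 6) (p : Pt) : nat2 (Lp i p) = actL i (nat2 p) := actW_singleton _ _

/-- The extension. -/
abbrev E3 : Subgroup (Equiv.Perm Pt) := Subgroup.closure (Set.range Lp)

/-- A right multiplication. -/
def Rf (j : Fin 6) (p : Pt) : Pt :=
  (⟨rtA j p.1, (left_spec j.2 p.1.2).2.1⟩, ⟨(p.2 + rfA j p.1) % 3, Nat.mod_lt _ (by norm_num)⟩)

/-- The translation of the fibre. -/
def Tf (p : Pt) : Pt := (p.1, ⟨(p.2 + 1) % 3, Nat.mod_lt _ (by norm_num)⟩)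

/-- The base point. -/
def base : Pt := (⟨0, by norm_num⟩, ⟨0, by norm_num⟩)

theorem base_val : (base.1 : ℕ) = 0 := by simp [base]

/-- The element below a point. -/
noncomputable def below (p : Pt) : G3 := elG p.1

theorem below_def (p : Pt) : below p = elG p.1 := by rw [below]

/-- The properties of the elements of the extension. -/
structure Regular (e : Equiv.Perm Pt) : Prop where
  /-- commutes with right multiplications -/
  rgt : ∀ j p, e (Rf j p) = Rf j (e p)
  /-- commutes with translations -/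
  shf : ∀ p, e (Tf p) = Tf (e p)
  /-- lies over a left multiplication -/
  ovr : ∃ g : G3, ∀ p, below (e p) = g * below p

theorem regular_Lp (i : Fin 6) : Regular (Lp i) := by
  refine ⟨fun j p => nat2_inj ?_, fun p => nat2_inj ?_, ⟨elG (3 ^ i.val), fun p => ?_⟩⟩
  · have h := comm_ok
    simp only [okComm, List.all_eq_true, List.mem_range, Bool.and_eq_true, Nat.beq_eq] at h
    obtain ⟨h1, h2⟩ := h i i.2 j j.2 p.1 p.1.2
    rw [nat2_Lp]
    change actL i (rtA j p.1, (p.2 + rfA j p.1) % 3) =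
      (rtA j (Lp i p).1, ((Lp i p).2 + rfA j (Lp i p).1) % 3)
    have e : nat2 (Lp i p) = actL i (nat2 p) := nat2_Lp i p
    rw [show ((Lp i p).1 : ℕ) = (actL i (nat2 p)).1 from congrArg Prod.fst e,
      show ((Lp i p).2 : ℕ) = (actL i (nat2 p)).2 from congrArg Prod.snd e]
    simp only [actL, actR, nat2, zero_add] at h1 h2 ⊢
    refine Prod.ext h1.symm ?_
    change ((↑p.2 + rfA j p.1) % 3 + lfA i (rtA j p.1)) % 3 = ((↑p.2 + lfA i p.1) % 3 + rfA j (ltA i p.1)) % 3
    omega
  · rw [nat2_Lp]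
    change actL i (p.1.val, (p.2.val + 1) % 3) = ((Lp i p).1.val, ((Lp i p).2.val + 1) % 3)
    have e : nat2 (Lp i p) = actL i (nat2 p) := nat2_Lp i p
    rw [show ((Lp i p).1 : ℕ) = (actL i (nat2 p)).1 from congrArg Prod.fst e,
      show ((Lp i p).2 : ℕ) = (actL i (nat2 p)).2 from congrArg Prod.snd e]
    simp only [actL, nat2, Prod.mk.injEq, true_and]
    omega
  · rw [below_def, below_def]
    have e : ((Lp i p).1 : ℕ) = ltA i p.1 := congrArg Prod.fst (nat2_Lp i p)
    rw [e, elG_left i.2 p.1.2]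

section generic

variable {α : Type*} {H : Type*} [Group H]

/-- Commuting with a map. -/
theorem com_mul {R : α → α} {x y : Equiv.Perm α} (hx : ∀ p, x (R p) = R (x p)) (hy : ∀ p, y (R p) = R (y p))
    (p : α) : (x * y) (R p) = R ((x * y) p) := by
  rw [Equiv.Perm.mul_apply, Equiv.Perm.mul_apply, hy, hx]

theorem com_inv {R : α → α} {x : Equiv.Perm α} (hx : ∀ p, x (R p) = R (x p)) (p : α) :
    x⁻¹ (R p) = R (x⁻¹ p) := by
  refine x.injective ?_
  rw [hx]
  exact (Equiv.apply_symm_apply x (R p)).trans (congrArg R (Equiv.apply_symm_apply x p)).symm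

theorem com_one (R : α → α) (p : α) : (1 : Equiv.Perm α) (R p) = R ((1 : Equiv.Perm α) p) := rfl

theorem over_one (f : α → H) : ∃ g, ∀ p, f ((1 : Equiv.Perm α) p) = g * f p :=
  ⟨1, fun p => (one_mul _).symm⟩

theorem over_mul {f : α → H} {x y : Equiv.Perm α} (hx : ∃ g, ∀ p, f (x p) = g * f p)
    (hy : ∃ g, ∀ p, f (y p) = g * f p) : ∃ g, ∀ p, f ((x * y) p) = g * f p := by
  obtain ⟨g, hg⟩ := hx
  obtain ⟨g', hg'⟩ := hy
  exact ⟨g * g', fun p => by rw [Equiv.Perm.mul_apply, hg, hg', mul_assoc]⟩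

theorem over_inv {f : α → H} {x : Equiv.Perm α} (hx : ∃ g, ∀ p, f (x p) = g * f p) :
    ∃ g, ∀ p, f (x⁻¹ p) = g * f p := by
  obtain ⟨g, hg⟩ := hx
  refine ⟨g⁻¹, fun p => eq_inv_mul_iff_mul_eq.2 ?_⟩
  rw [← hg]
  exact congrArg f (Equiv.apply_symm_apply x p)

end generic

theorem regular (e : E3) : Regular e.1 := by
  obtain ⟨e, he⟩ := e
  induction he using Subgroup.closure_induction with
  | mem x hx =>
    obtain ⟨i, rfl⟩ := hx
    exact regular_Lp i
  | one => exact ⟨fun j p => com_one (Rf j) p, fun p => com_one Tf p, over_one below⟩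
  | mul x y _ _ hx hy =>
    exact ⟨fun j p => com_mul (hx.rgt j) (hy.rgt j) p, fun p => com_mul hx.shf hy.shf p,
      over_mul (f := below) hx.ovr hy.ovr⟩
  | inv x _ hx =>
    exact ⟨fun j p => com_inv (hx.rgt j) p, fun p => com_inv hx.shf p, over_inv (f := below) hx.ovr⟩

theorem below_base : below base = 1 := by
  rw [below_def, base_val, elG_zero]

theorem reach {P : Pt → Prop} (h0 : P base) (hR : ∀ j p, P p → P (Rf j p)) (hT : ∀ p, P p → P (Tf p))
    (p : Pt) : P p := by
  have hfib : ∀ p : Pt, P (p.1, ⟨0, by norm_num⟩) → P p := by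
    rintro ⟨a, r⟩ h
    fin_cases r
    · exact h
    · exact hT _ h
    · exact hT _ (hT _ h)
  have key : ∀ a : ℕ, ∀ ha : a < 729, P (⟨a, ha⟩, ⟨0, by norm_num⟩) := by
    intro a
    induction a using Nat.strong_induction_on with
    | _ a ih =>
      intro ha
      rcases Nat.eq_zero_or_pos a with rfl | hpos
      · exact h0
      set k := Nat.log 3 a
      have h1 : 3 ^ k ≤ a := Nat.pow_log_le_self 3 hpos.ne'
      have h2 : a < 3 ^ (k + 1) := Nat.lt_pow_succ_log_self (by norm_num) a
      have hk : k < 6 := by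
        by_contra hk
        exact absurd (le_trans (Nat.pow_le_pow_right (by norm_num) (not_lt.1 hk)) h1) (not_le.2 ha)
      rw [pow_succ] at h2
      have h := top_ok
      simp only [okTop, List.all_eq_true, List.mem_range, Bool.and_eq_true, Nat.beq_eq] at h
      obtain ⟨h3, h4⟩ := h k hk (a - 3 ^ k) (by omega)
      have h5 := hR ⟨k, hk⟩ _ (ih (a - 3 ^ k) (by have := Nat.pos_of_ne_zero (pow_ne_zero k (three_ne_zero' ℕ)); omega)
        (by omega))
      convert h5 using 1
      refine nat2_inj ?_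
      simp only [nat2, Rf, h3, h4, Nat.sub_add_cancel h1]
  exact hfib p (key _ p.1.2)

theorem ext_base {e e' : E3} (h : e.1 base = e'.1 base) : e = e' := by
  refine Subtype.ext (Equiv.ext fun p => ?_)
  refine reach (P := fun p => e.1 p = e'.1 p) h (fun j p hp => ?_) (fun p hp => ?_) p
  · rw [(regular e).rgt, (regular e').rgt, hp]
  · rw [(regular e).shf, (regular e').shf, hp]

/-- The projection. -/
noncomputable def proj3 : E3 →* G3 :=
  MonoidHom.mk' (fun e => elG (e.1 base).1) fun e e' => by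
    obtain ⟨g, hg⟩ := (regular e).ovr
    have h0 := hg base
    rw [below_base, mul_one] at h0
    rw [Subgroup.coe_mul, Equiv.Perm.mul_apply, ← below_def, ← below_def, ← below_def, hg, h0]

/-- The Sylow subgroup. -/
noncomputable abbrev P3s : Subgroup G3 := proj3.range

/-- The projection onto the Sylow subgroup. -/
noncomputable def zeta : E3 →* P3s := proj3.rangeRestrict

theorem zeta_val (e : E3) : (zeta e : G3) = elG (e.1 base).1 := rfl

/-- The element of a word. -/
def wEl : List ℕ → E3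
  | [] => 1
  | i :: w => if h : i < 6 then ⟨Lp ⟨i, h⟩, Subgroup.subset_closure ⟨_, rfl⟩⟩ * wEl w else 1

theorem wEl_apply : ∀ (w : List ℕ), (∀ i ∈ w, i < 6) → ∀ p : Pt, nat2 ((wEl w).1 p) = actW w (nat2 p)
  | [], _, p => by simp [wEl, actW]
  | i :: w, h, p => by
    rw [wEl, dif_pos (h i List.mem_cons_self), Subgroup.coe_mul, Equiv.Perm.mul_apply, nat2_Lp,
      wEl_apply w (fun x hx => h x (List.mem_cons_of_mem _ hx))]
    simp only [actW, List.foldr_cons]

theorem wEl_word {a : ℕ} (ha : a < 729) : (wEl (word a)).1 base = (⟨a, ha⟩, ⟨0, by norm_num⟩) :=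
  nat2_inj ((wEl_apply _ (word_spec ha).1 base).trans (word_spec ha).2)

/-- The element of an index. -/
noncomputable def pEl (a : ℕ) : P3s := zeta (wEl (word (a % 729)))

theorem pEl_val {a : ℕ} (ha : a < 729) : (pEl a : G3) = elG a := by
  rw [pEl, zeta_val, Nat.mod_eq_of_lt ha, wEl_word ha]

/-- The standard section. -/
noncomputable def sec3 (x : P3s) : E3 := wEl (word ((Classical.choose x.2).1 base).1)

theorem zeta_sec3 (x : P3s) : zeta (sec3 x) = x := by
  refine Subtype.ext ?_
  rw [zeta_val, sec3, wEl_word (Fin.isLt _)]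
  exact Classical.choose_spec x.2

theorem sec3_pEl {a : ℕ} (ha : a < 729) : sec3 (pEl a) = wEl (word a) := by
  have h : ((Classical.choose (pEl a).2).1 base).1.val = a :=
    elG_inj (Fin.isLt _) ha ((Classical.choose_spec (pEl a).2).trans (pEl_val ha))
  rw [sec3, h]

/-- The translation in the extension. -/
def tEl : E3 := wEl transWord

theorem tEl_spec (p : Pt) : tEl.1 p = Tf p := by
  have h := word_ok
  simp only [okWord, Bool.and_eq_true, List.all_eq_true, Nat.blt_eq, Nat.beq_eq] at h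
  have hb : tEl.1 base = Tf base := nat2_inj ((wEl_apply _ h.1.1.2 base).trans (Prod.ext h.1.2 h.2))
  refine reach (P := fun p => tEl.1 p = Tf p) hb (fun j p hp => ?_) (fun p hp => ?_) p
  · rw [(regular tEl).rgt, hp]
    refine nat2_inj ?_
    simp only [nat2, Rf, Tf, Prod.mk.injEq, true_and]
    omega
  · rw [(regular tEl).shf, hp]

theorem tEl_pow (n : ℕ) (p : Pt) : nat2 ((tEl ^ n).1 p) = (p.1.val, (p.2 + n) % 3) := by
  induction n generalizing p with
  | zero => simp [nat2, Nat.mod_eq_of_lt p.2.2]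
  | succ n ih =>
    rw [pow_succ, Subgroup.coe_mul, Equiv.Perm.mul_apply, tEl_spec, ih]
    simp only [Tf, Prod.mk.injEq, true_and]
    omega

/-- The fibre. -/
noncomputable def incl3 : Multiplicative (ZMod 3) →* E3 :=
  MonoidHom.mk' (fun t => tEl ^ t.toAdd.val) fun s t => ext_base (nat2_inj (by
    rw [← pow_add, tEl_pow, tEl_pow, toAdd_mul, ZMod.val_add, Nat.add_mod_mod]))

theorem nat2_incl3 (t : Multiplicative (ZMod 3)) (p : Pt) :
    nat2 ((incl3 t).1 p) = (p.1.val, (p.2 + t.toAdd.val) % 3) := tEl_pow _ p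

theorem incl3_injective : Function.Injective incl3 := fun s t e => by
  have h := congrArg (fun x : E3 => (nat2 (x.1 base)).2) e
  simp only [nat2_incl3] at h
  change (0 + s.toAdd.val) % 3 = (0 + t.toAdd.val) % 3 at h
  rw [zero_add, zero_add, Nat.mod_eq_of_lt (ZMod.val_lt _), Nat.mod_eq_of_lt (ZMod.val_lt _)] at h
  exact Multiplicative.toAdd.injective (ZMod.val_injective 3 h)

theorem zeta_incl3 (t : Multiplicative (ZMod 3)) : zeta (incl3 t) = 1 := by
  refine Subtype.ext ?_
  rw [zeta_val, show ((incl3 t).1 base).1.val = 0 from congrArg Prod.fst (nat2_incl3 t base), elG_zero]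
  rfl

theorem incl3_central (t : Multiplicative (ZMod 3)) (y : E3) : y * incl3 t = incl3 t * y := by
  have h : Commute y tEl := Subtype.ext (Equiv.ext fun p => by
    simp only [Subgroup.coe_mul, Equiv.Perm.mul_apply, tEl_spec, (regular y).shf])
  exact (h.pow_right _).eq

theorem exists_incl3 (x : E3) (hx : zeta x = 1) : ∃ t, incl3 t = x := by
  have h : ((x.1 base).1 : ℕ) = 0 :=
    elG_inj (Fin.isLt _) (by norm_num) ((congrArg Subtype.val hx : _).trans elG_zero.symm)
  refine ⟨Multiplicative.ofAdd ((x.1 base).2.val : ZMod 3), ext_base (nat2_inj ?_)⟩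
  rw [nat2_incl3, toAdd_ofAdd, ZMod.val_natCast, Nat.add_mod_mod]
  refine Prod.ext h.symm ?_
  change (0 + (x.1 base).2.val) % 3 = _
  rw [zero_add, Nat.mod_eq_of_lt (Fin.isLt _)]
  rfl

theorem card_P3s : Nat.card P3s = 729 := by
  let f : Fin 729 → P3s := fun a => pEl a
  have h : Function.Bijective f := by
    refine ⟨fun a b e => Fin.ext (elG_inj a.2 b.2 ?_), fun x => ⟨((sec3 x).1 base).1, ?_⟩⟩
    · rw [← pEl_val a.2, ← pEl_val b.2]; exact congrArg Subtype.val e
    · refine Subtype.ext ((pEl_val (Fin.isLt _)).trans ?_)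
      rw [← zeta_val, zeta_sec3]
  rw [← Nat.card_congr (Equiv.ofBijective f h), Nat.card_fin]

end CfsgLib.G23Mult
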