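import Cfsg.Agent.G23Mult.Code

set_option autoImplicit false

/-!
The packed product is the product of matrices.
-/

namespace CfsgLib.G23Mult

open Matrix

/-- The matrix of a code. -/
def toM (n : ℕ) : Matrix (Fin 7) (Fin 7) (ZMod 3) := Matrix.of fun i j => (dig n (7 * i.val + j.val) : ZMod 3)

theorem dig_eq (n k : ℕ) : dig n k = n / 64 ^ k % 64 := by
  rw [dig, Nat.shiftRight_eq_div_pow, show (63 : ℕ) = 2 ^ 6 - 1 from rfl, Nat.and_two_pow_sub_one_eq_mod, pow_mul]
  norm_num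

theorem rowN_eq (n i : ℕ) : rowN n i = n / 4398046511104 ^ i % 4398046511104 := by
  rw [rowN, Nat.shiftRight_eq_div_pow, show (4398046511103 : ℕ) = 2 ^ 42 - 1 from rfl,
    Nat.and_two_pow_sub_one_eq_mod, pow_mul]
  norm_num

theorem seven_digits (m : ℕ) (hm : m < 4398046511104) : m = m % 64 + m / 64 % 64 * 64 + m / 4096 % 64 * 4096 +
    m / 262144 % 64 * 262144 + m / 16777216 % 64 * 16777216 + m / 1073741824 % 64 * 1073741824 +
    m / 68719476736 % 64 * 68719476736 := by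
  omega

theorem dig_row (n k : ℕ) {j : ℕ} (hj : j < 7) : rowN n k / 64 ^ j % 64 = dig n (7 * k + j) := by
  rw [rowN_eq, dig_eq, show (4398046511104 : ℕ) = 64 ^ 7 by norm_num, ← pow_mul]
  have e : (64 : ℕ) ^ 7 = 64 ^ j * 64 ^ (7 - j) := by rw [← pow_add, Nat.add_sub_cancel' hj.le]
  rw [e, Nat.mod_mul_right_div_self, Nat.div_div_eq_div_mul, ← pow_add]
  exact Nat.mod_mod_of_dvd _ (dvd_pow_self _ (by omega))

theorem rowN_digits (n k : ℕ) : rowN n k = dig n (7 * k + 0) + dig n (7 * k + 1) * 64 + dig n (7 * k + 2) * 4096 +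
    dig n (7 * k + 3) * 262144 + dig n (7 * k + 4) * 16777216 + dig n (7 * k + 5) * 1073741824 +
    dig n (7 * k + 6) * 68719476736 := by
  have h := seven_digits (rowN n k) (by rw [rowN_eq]; exact Nat.mod_lt _ (by norm_num))
  rw [← dig_row n k (show 0 < 7 by norm_num), ← dig_row n k (show 1 < 7 by norm_num),
    ← dig_row n k (show 2 < 7 by norm_num), ← dig_row n k (show 3 < 7 by norm_num),
    ← dig_row n k (show 4 < 7 by norm_num), ← dig_row n k (show 5 < 7 by norm_num),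
    ← dig_row n k (show 6 < 7 by norm_num)]
  norm_num
  exact h

theorem seven_split (d0 d1 d2 d3 d4 d5 d6 : ℕ) (h0 : d0 < 64) (h1 : d1 < 64) (h2 : d2 < 64) (h3 : d3 < 64)
    (h4 : d4 < 64) (h5 : d5 < 64) (h6 : d6 < 64) (s : ℕ)
    (hs : s = d0 + d1 * 64 + d2 * 4096 + d3 * 262144 + d4 * 16777216 + d5 * 1073741824 + d6 * 68719476736)
    (j : Fin 7) : dig s j = ![d0, d1, d2, d3, d4, d5, d6] j := by
  rw [dig_eq]
  fin_cases j <;> simp <;> omega

theorem wf_spec {n : ℕ} (h : wf n = true) : n < 2 ^ 294 ∧ ∀ k < 49, dig n k < 3 := by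
  simp only [wf, Bool.and_eq_true, Nat.blt_eq, List.all_eq_true, List.mem_range] at h
  exact h

theorem combRow_dig {g h : ℕ} (hg : wf g = true) (hh : wf h = true) (i j : Fin 7) :
    (dig (combRow g h i) j : ZMod 3) = (toM g * toM h) i j := by
  have ha : ∀ k : Fin 7, dig g (7 * i.val + k.val) ≤ 2 := fun k =>
    Nat.le_of_lt_succ ((wf_spec hg).2 _ (by omega))
  have hb : ∀ k < 7, ∀ l < 7, dig h (7 * k + l) ≤ 2 := fun k hk l hl =>
    Nat.le_of_lt_succ ((wf_spec hh).2 _ (by omega))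
  have hsum : ∀ l, l < 7 →
      dig g (7 * i.val + 0) * dig h (7 * 0 + l) + dig g (7 * i.val + 1) * dig h (7 * 1 + l) +
      dig g (7 * i.val + 2) * dig h (7 * 2 + l) + dig g (7 * i.val + 3) * dig h (7 * 3 + l) +
      dig g (7 * i.val + 4) * dig h (7 * 4 + l) + dig g (7 * i.val + 5) * dig h (7 * 5 + l) +
      dig g (7 * i.val + 6) * dig h (7 * 6 + l) < 64 := by
    intro l hl
    have := Nat.mul_le_mul (ha 0) (hb 0 (by norm_num) l hl)
    have := Nat.mul_le_mul (ha 1) (hb 1 (by norm_num) l hl)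
    have := Nat.mul_le_mul (ha 2) (hb 2 (by norm_num) l hl)
    have := Nat.mul_le_mul (ha 3) (hb 3 (by norm_num) l hl)
    have := Nat.mul_le_mul (ha 4) (hb 4 (by norm_num) l hl)
    have := Nat.mul_le_mul (ha 5) (hb 5 (by norm_num) l hl)
    have := Nat.mul_le_mul (ha 6) (hb 6 (by norm_num) l hl)
    simp only [Fin.val_zero, Fin.val_one, Fin.val_two, show ((3 : Fin 7) : ℕ) = 3 from rfl,
      show ((4 : Fin 7) : ℕ) = 4 from rfl, show ((5 : Fin 7) : ℕ) = 5 from rfl,
      show ((6 : Fin 7) : ℕ) = 6 from rfl] at *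
    omega
  rw [seven_split _ _ _ _ _ _ _ (hsum 0 (by norm_num)) (hsum 1 (by norm_num)) (hsum 2 (by norm_num))
    (hsum 3 (by norm_num)) (hsum 4 (by norm_num)) (hsum 5 (by norm_num)) (hsum 6 (by norm_num))
    (combRow g h i) (by simp only [combRow, rowN_digits, add_zero]; ring) j]
  rw [Matrix.mul_apply, Fin.sum_univ_seven]
  fin_cases j <;> simp [toM]

theorem redRow_lt (s : ℕ) : redRow s < 4398046511104 := by
  simp only [redRow]
  omega

theorem redRow_dig (s : ℕ) (j : Fin 7) : dig (redRow s) j = dig s j % 3 := by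
  have hlt : ∀ k, dig s k % 3 < 64 := fun k => lt_trans (Nat.mod_lt _ (by norm_num)) (by norm_num)
  rw [seven_split _ _ _ _ _ _ _ (hlt 0) (hlt 1) (hlt 2) (hlt 3) (hlt 4) (hlt 5) (hlt 6) (redRow s) (by simp only [redRow]) j]
  fin_cases j <;> rfl

theorem seven_rows (r : Fin 7 → ℕ) (h : ∀ k, r k < 4398046511104) (s : ℕ)
    (hs : s = r 0 + (r 1 <<< 42) + (r 2 <<< 84) + (r 3 <<< 126) + (r 4 <<< 168) + (r 5 <<< 210) + (r 6 <<< 252))
    (i : Fin 7) : rowN s i = r i ∧ s < 2 ^ 294 := by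
  have h0 := h 0
  have h1 := h 1
  have h2 := h 2
  have h3 := h 3
  have h4 := h 4
  have h5 := h 5
  have h6 := h 6
  simp only [Nat.shiftLeft_eq] at hs
  norm_num at hs
  constructor
  · rw [rowN_eq]
    fin_cases i <;> simp <;> omega
  · norm_num
    omega

theorem mulC_def (g h : ℕ) : mulC g h = redRow (combRow g h 0) + (redRow (combRow g h 1) <<< 42) +
    (redRow (combRow g h 2) <<< 84) + (redRow (combRow g h 3) <<< 126) + (redRow (combRow g h 4) <<< 168) +
    (redRow (combRow g h 5) <<< 210) + (redRow (combRow g h 6) <<< 252) := by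
  delta mulC; exact Eq.refl _

theorem mulC_row (g h : ℕ) (i : Fin 7) : rowN (mulC g h) i = redRow (combRow g h i) ∧ mulC g h < 2 ^ 294 :=
  seven_rows (fun k : Fin 7 => redRow (combRow g h k.val)) (fun k => redRow_lt _) (mulC g h) (mulC_def g h) i

theorem mulC_dig (g h : ℕ) (i j : Fin 7) :
    dig (mulC g h) (7 * i.val + j.val) = dig (combRow g h i) j % 3 := by
  rw [← dig_row _ _ j.isLt, (mulC_row g h i).1, ← dig_eq, redRow_dig]

theorem mulC_wf (g h : ℕ) : wf (mulC g h) = true := by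
  simp only [wf, Bool.and_eq_true, Nat.blt_eq, List.all_eq_true, List.mem_range]
  refine ⟨(mulC_row g h 0).2, fun k hk => ?_⟩
  have e := mulC_dig g h ⟨k / 7, by omega⟩ ⟨k % 7, Nat.mod_lt _ (by norm_num)⟩
  rw [show 7 * (k / 7) + k % 7 = k from Nat.div_add_mod k 7] at e
  rw [e]
  exact Nat.mod_lt _ (by norm_num)

theorem toM_mul {g h : ℕ} (hg : wf g = true) (hh : wf h = true) : toM (mulC g h) = toM g * toM h := by
  ext i j
  rw [← combRow_dig hg hh, toM, Matrix.of_apply, mulC_dig, ZMod.natCast_mod]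

theorem toM_oneC : toM oneC = 1 := by decide +kernel

theorem toM_inj {m n : ℕ} (hm : wf m = true) (hn : wf n = true) (h : toM m = toM n) : m = n := by
  have e : ∀ k < 49, dig m k = dig n k := by
    intro k hk
    have h1 := congrFun (congrFun h ⟨k / 7, by omega⟩) ⟨k % 7, Nat.mod_lt _ (by norm_num)⟩
    simp only [toM, Matrix.of_apply] at h1
    rw [show 7 * (k / 7) + k % 7 = k from Nat.div_add_mod k 7, ZMod.natCast_eq_natCast_iff'] at h1
    rwa [Nat.mod_eq_of_lt ((wf_spec hm).2 k hk), Nat.mod_eq_of_lt ((wf_spec hn).2 k hk)] at h1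
  refine Nat.eq_of_testBit_eq fun b => ?_
  rcases Nat.lt_or_ge b 294 with hb | hb
  · have hd : ∀ x : ℕ, x.testBit b = (dig x (b / 6)).testBit (b % 6) := fun x => by
      rw [dig, show (63 : ℕ) = 2 ^ 6 - 1 from rfl, Nat.testBit_and, Nat.testBit_shiftRight,
        Nat.testBit_two_pow_sub_one, Nat.div_add_mod]
      simp [Nat.mod_lt]
    rw [hd, hd, e _ (by omega)]
  · rw [Nat.testBit_lt_two_pow (lt_of_lt_of_le (wf_spec hm).1 (Nat.pow_le_pow_right (by norm_num) hb)),
      Nat.testBit_lt_two_pow (lt_of_lt_of_le (wf_spec hn).1 (Nat.pow_le_pow_right (by norm_num) hb))]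

end CfsgLib.G23Mult
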