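import Cfsg.Agent.G23Mult.Cover
import Cfsg.Agent.SchurSylow.Bound
import Cfsg.Agent.S3979

set_option autoImplicit false

/-!
The Schur multiplier of `G₂(3)` is cyclic of order three.
-/

namespace CfsgLib.G23Mult

open Cfsg Cfsg.Lie CfsgLib.G2Three CfsgLib.Schur CfsgLib.SchurSylow

universe u v w

section generic

variable {G : Type u} [Group G] {Γ : Type v} [Group Γ]

/-- The part of a kernel at one prime, as a quotient extension. -/
theorem exists_prime_part [Finite Γ] {σ : Γ →* G} (hσ : Cfsg.IsStemExtension σ) (p : ℕ) [hp : Fact p.Prime]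
    {k : ℕ} (hk : p ^ k ∣ Nat.card σ.ker) :
    ∃ (Δ : Type v) (_ : Group Δ) (_ : Finite Δ) (τ : Δ →* G), Cfsg.IsStemExtension τ ∧
      (∀ q, q.Prime → q ∣ Nat.card τ.ker → q = p) ∧ p ^ k ∣ Nat.card τ.ker := by
  classical
  set m := Nat.card σ.ker / p ^ (Nat.card σ.ker).factorization p with hm
  have hpm : ¬ p ∣ m := Nat.not_dvd_ordCompl hp.out Nat.card_pos.ne'
  have hc : ∀ x ∈ σ.ker, ∀ g, g * x = x * g := fun x hx => Subgroup.mem_center_iff.1 (hσ.2.1 hx)
  let N : Subgroup Γ :=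
    { carrier := {x | x ∈ σ.ker ∧ x ^ m = 1}
      one_mem' := ⟨one_mem _, one_pow m⟩
      mul_mem' := fun {x y} hx hy => ⟨mul_mem hx.1 hy.1, by
        rw [(show Commute x y from (hc _ hx.1 y).symm).mul_pow, hx.2, hy.2, one_mul]⟩
      inv_mem' := fun {x} hx => ⟨inv_mem hx.1, by rw [inv_pow, hx.2, inv_one]⟩ }
  have hN : N ≤ σ.ker := fun x hx => hx.1
  haveI : N.Normal := ⟨fun x hx g => by rwa [hc _ hx.1 g, mul_inv_cancel_right]⟩
  let τ : Γ ⧸ N →* G := QuotientGroup.lift N σ hN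
  have hτk : τ.ker = σ.ker.map (QuotientGroup.mk' N) := QuotientGroup.ker_lift N σ hN
  refine ⟨Γ ⧸ N, inferInstance, inferInstance, τ, ⟨fun g => ?_, ?_, ?_⟩, ?_, ?_⟩
  · obtain ⟨x, hx⟩ := hσ.1 g
    exact ⟨(x : Γ ⧸ N), hx⟩
  · rw [hτk]
    rintro _ ⟨x, hx, rfl⟩
    refine Subgroup.mem_center_iff.2 fun y => ?_
    obtain ⟨y, rfl⟩ := QuotientGroup.mk'_surjective N y
    rw [← map_mul, ← map_mul, hc x hx]
  · rw [hτk, ← map_commutator_surjective _ (QuotientGroup.mk'_surjective N)]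
    exact Subgroup.map_mono hσ.2.2
  · intro q hq hd
    haveI := Fact.mk hq
    obtain ⟨y, hy⟩ := exists_prime_orderOf_dvd_card' q hd
    have hy' : (y : Γ ⧸ N) ^ p ^ (Nat.card σ.ker).factorization p = 1 := by
      have hmem : (y : Γ ⧸ N) ∈ σ.ker.map (QuotientGroup.mk' N) := hτk ▸ y.2
      obtain ⟨x, hx, e⟩ := hmem
      rw [← e, ← map_pow]
      refine (QuotientGroup.eq_one_iff _).2 ⟨pow_mem hx _, ?_⟩
      rw [← pow_mul, hm, Nat.ordProj_mul_ordCompl_eq_self]
      exact congrArg Subtype.val (pow_card_eq_one' (x := (⟨x, hx⟩ : σ.ker)))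
    have h1 : q ∣ p ^ (Nat.card σ.ker).factorization p := by
      rw [← hy, ← Subgroup.orderOf_coe]
      exact orderOf_dvd_of_pow_eq_one hy'
    exact (Nat.prime_dvd_prime_iff_eq hq hp.out).1 (hq.dvd_of_dvd_pow h1)
  · have hcard : Nat.card σ.ker = Nat.card (N.subgroupOf σ.ker) * Nat.card τ.ker := by
      rw [← Subgroup.card_mul_index (N.subgroupOf σ.ker)]
      congr 1
      rw [hτk, ← Subgroup.relIndex]
      have h : (QuotientGroup.mk' N).ker = N := QuotientGroup.ker_mk' N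
      rw [← Subgroup.relIndex_ker, h]
    rw [hcard] at hk
    refine Nat.Coprime.dvd_of_dvd_mul_left (Nat.Coprime.pow_left k ?_) hk
    refine (hp.out.coprime_iff_not_dvd).2 fun hd => ?_
    obtain ⟨x, hx⟩ := exists_prime_orderOf_dvd_card' p hd
    refine hpm ?_
    have h2 : orderOf ((x : σ.ker) : Γ) = p := by
      rw [Subgroup.orderOf_coe, Subgroup.orderOf_coe, hx]
    rw [← h2]
    exact orderOf_dvd_of_pow_eq_one x.2.2

/-- The multiplier is carried along an isomorphism. -/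
theorem multiplier_congr {H : Type v} [Group H] {A : Type w} [CommGroup A] (e : G ≃* H)
    (hA : Cfsg.HasSchurMultiplier G A) : Cfsg.HasSchurMultiplier H A := by
  obtain ⟨Γ, iG, iF, σ, hσ, ⟨f⟩⟩ := id hA.1
  refine ⟨?_, fun Δ _ _ τ hτ => ?_⟩
  · have hk : (e.toMonoidHom.comp σ).ker = σ.ker := by
      ext x; simp [MonoidHom.mem_ker]
    have hσ' : Cfsg.IsStemExtension (e.toMonoidHom.comp σ) :=
      ⟨e.surjective.comp hσ.1, hk ▸ hσ.2.1, hk ▸ hσ.2.2⟩
    exact exists_stem_model hσ' ((MulEquiv.subgroupCongr hk).trans f)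
  · have hk : (e.symm.toMonoidHom.comp τ).ker = τ.ker := by
      ext x; simp [MonoidHom.mem_ker]
    have hτ' : Cfsg.IsStemExtension (e.symm.toMonoidHom.comp τ) :=
      ⟨e.symm.surjective.comp hτ.1, hk ▸ hτ.2.1, hk ▸ hτ.2.2⟩
    obtain ⟨π, hπ⟩ := exists_surj hA hτ'
    exact ⟨(MulEquiv.subgroupCongr hk).toMonoidHom.comp π, (MulEquiv.subgroupCongr hk).surjective.comp hπ⟩

end generic

theorem small_part {Γ : Type v} [Group Γ] [Finite Γ] {σ : Γ →* G3} (hσ : Cfsg.IsStemExtension σ)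
    {p : ℕ} [hp : Fact p.Prime] (hp2 : p ≠ 2) (hp3 : p ≠ 3) {k : ℕ} (hk : p ^ k ∣ Nat.card σ.ker) :
    p ^ k ∣ 1 := by
  haveI := finite_G3
  obtain ⟨Q⟩ : Nonempty (Sylow p G3) := inferInstance
  obtain ⟨j, hj⟩ := IsPGroup.iff_card.1 Q.isPGroup'
  have hd : p ^ j ∣ 4245696 := card_G3 ▸ hj ▸ Subgroup.card_subgroup_dvd_card _
  have hcop : Nat.Coprime (p ^ j) (2 ^ 6 * 3 ^ 6) := by
    refine Nat.Coprime.pow_left j (Nat.Coprime.mul_right ?_ ?_)
    · exact ((Nat.coprime_primes hp.out Nat.prime_two).2 hp2).pow_right 6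
    · exact ((Nat.coprime_primes hp.out Nat.prime_three).2 hp3).pow_right 6
  have h91 : p ^ j ∣ 91 := hcop.dvd_of_dvd_mul_left (show p ^ j ∣ 2 ^ 6 * 3 ^ 6 * 91 by norm_num; exact hd)
  have hj1 : j ≤ 1 := by
    by_contra hj2
    have h2 : p ^ 2 ∣ 91 := (pow_dvd_pow p (by omega)).trans h91
    have h3 := Nat.le_of_dvd (by norm_num) h2
    have h4' : p ≤ 9 := by
      by_contra h6
      have := Nat.pow_le_pow_left (show 10 ≤ p by omega) 2
      omega
    have := hp.out.two_le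
    interval_cases p <;> norm_num at h2
  haveI : IsCyclic (Q : Subgroup G3) := by
    rcases Nat.le_one_iff_eq_zero_or_eq_one.1 hj1 with rfl | rfl
    · have : Subsingleton (Q : Subgroup G3) := (Nat.card_eq_one_iff_unique.1 (hj.trans (pow_zero p))).1
      infer_instance
    · exact isCyclic_of_prime_card (hj.trans (pow_one p))
  have h := pow_dvd_card hσ Q (MulEquiv.refl _) Cfsg.Agent.S3979.result hk
  rwa [Nat.card_congr Multiplicative.toAdd, Nat.card_zmod] at h

theorem card_ker_dvd {Γ : Type v} [Group Γ] [Finite Γ] {σ : Γ →* G3} (hσ : Cfsg.IsStemExtension σ) :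
    Nat.card σ.ker ∣ 3 := by
  refine (Nat.dvd_iff_prime_pow_dvd_dvd 3 _).2 fun p k hp hk => ?_
  haveI := Fact.mk hp
  by_cases hp2 : p = 2
  · subst hp2
    obtain ⟨Δ, _, _, τ, hτ, hq, hd⟩ := exists_prime_part hσ 2 hk
    rw [two_part hτ hq, Subgroup.card_bot] at hd
    exact hd.trans (one_dvd _)
  by_cases hp3 : p = 3
  · subst hp3
    obtain ⟨Δ, _, _, τ, hτ, hq, hd⟩ := exists_prime_part hσ 3 hk
    exact hd.trans (three_part hτ hq)
  exact (small_part hσ hp2 hp3 hk).trans (one_dvd _)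

theorem multiplier : Cfsg.HasCyclicSchurMultiplier G3 3 := by
  haveI := finite_G3
  obtain ⟨Γ, _, _, σ, hσ, h3⟩ := exists_cover
  exact hasCyclic_of Nat.prime_three.squarefree hσ (Nat.dvd_antisymm (card_ker_dvd hσ) h3)
    fun Δ _ _ τ hτ => card_ker_dvd hτ

/-- The multiplier over any field with three elements. -/
theorem multiplier_group {F : Type u} [Field F] [Fintype F] (hF : Fintype.card F = 3) :
    Cfsg.HasCyclicSchurMultiplier ↥(chevG2.group F) 3 := by
  classical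
  let f : ZMod 3 ≃+* F := ZMod.ringEquivOfPrime F (by norm_num) hF
  let ψ : G3 ≃* ↥(chevG2.group F) :=
    (Subgroup.equivMapOfInjective _ _
      (CfsgLib.Chev.glMap_injective chevG2 (f : ZMod 3 →+* F))).trans
      (MulEquiv.subgroupCongr (CfsgLib.Chev.map_group_eq chevG2 (f : ZMod 3 →+* F) f.surjective))
  exact multiplier_congr ψ multiplier

end CfsgLib.G23Mult
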