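import Cfsg.Agent.G23Mult.Mat
import Cfsg.Agent.G2Three.Graph

set_option autoImplicit false
set_option maxRecDepth 100000

/-!
The packed root elements are those of the group.
-/

namespace CfsgLib.G23Mult

open Cfsg.Lie Matrix CfsgLib.G2Three

/-- The parameter of a root code. -/
def rootT (e : ℕ) : ZMod 3 := if e % 2 = 0 then 1 else 2

theorem roots_eq : ∀ (r : Fin chevG2.nroots) (b : Fin 2),
    r7 (chevG2.xMat (ZMod 3) r (rootT b.val)) = toM (rootC (2 * r.val + b.val)) := by
  decide +kernel

theorem exists_root {e : ℕ} (he : e < 24) : ∃ x : G3, rho x = toM (rootC e) := by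
  have hr : e / 2 < chevG2.nroots := by
    rw [show chevG2.nroots = 12 from rfl]; omega
  obtain ⟨x, hx⟩ := exists_word [(⟨e / 2, hr⟩, rootT (e % 2))]
  refine ⟨x, hx.trans ?_⟩
  rw [List.map_cons, List.map_nil, List.prod_cons, List.prod_nil, mul_one]
  have h := roots_eq ⟨e / 2, hr⟩ ⟨e % 2, Nat.mod_lt _ (by norm_num)⟩
  simp only [Nat.div_add_mod] at h
  exact h

end CfsgLib.G23Mult
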